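import Mathlib
import Cfsg.Agent.H231.OutB3
import Cfsg.Agent.H375.Out.OmLink
import Cfsg.Agent.H376.Six.Cover

/-!
# Outer automorphisms of `PΩ⁺₈(q)`, `q` even: the automorphisms of 2-power order (helper199)

* `core`, `two_part` : `A ≤ Aut(PΩ⁺₈(q))` contains the inner automorphisms and an element of 2-power order which is not
  inner: `A` has an element of order `2 l`, where `l` is a primitive prime divisor of `q ^ 3 - 1`.
-/

set_option autoImplicit false
set_option linter.unusedVariables false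
set_option linter.unusedSectionVars false

namespace Cfsg.Agent.H199.Out.DFour

open Module Finset QuadraticMap Cfsg Cfsg.Agent.H375 Cfsg.Agent.H375.Odd Cfsg.Agent.H375.Out Cfsg.Agent.H231.OutB
open Cfsg.Agent.LieClassical.OrthCount Cfsg.Agent.LieClassical.OmegaReindex Cfsg.Agent.LieClassical
open Cfsg.Agent.LieClassical.OrthTrans Cfsg.Agent.LieClassical.OrthFinite Cfsg.Agent.LieClassical.OrthCore
open Cfsg.Agent.ClassicalGeometry Cfsg.Agent.ClassicalGeometry.OrthSemi Cfsg.Agent.ClassicalGeometry.OrthSemiForms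

variable {F : Type*} [Field F] [Fintype F] [CharP F 2]

section General

variable {ι : Type} [Fintype ι] [DecidableEq ι] {Q : QuadraticForm F (ι → F)}

theorem IsSS.pow {V : Type*} [AddCommGroup V] [Module F V] {Q : QuadraticForm F V} {σ : RingAut F}
    {M : Equiv.Perm V} (h : IsSS Q σ 1 M) (j : ℕ) : IsSS Q (σ ^ j : RingAut F) 1 (M ^ j) := by
  induction j with
  | zero => exact ⟨one_ne_zero, fun _ _ => rfl, fun _ _ => rfl, fun _ => by rw [one_mul]; rfl⟩
  | succ j ih =>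
    have h1 := h.mul ih
    rw [map_one, one_mul] at h1
    rw [pow_succ', pow_succ']
    exact h1

/-- a semilinear isometry in `Gam` -/
def gm {σ : F ≃+* F} {N : Equiv.Perm (ι → F)} (hN : IsSS Q σ 1 N) : Gam Q := ⟨N, σ, 1, hN⟩

/-- the field automorphism and the multiplier can be normalised -/
theorem exists_norm (M : Gam Q) : ∃ (σ : F ≃+* F) (N : Equiv.Perm (ι → F)) (hN : IsSS Q σ 1 N) (a : Fˣ),
    gm hN = scal Q a * M := by
  obtain ⟨φ, l, hs⟩ := id M.2
  obtain ⟨d, hd⟩ := FiniteField.isSquare_of_char_two (F := F) (ringChar.eq F 2) l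
  have hd0 : d ≠ 0 := by
    rintro rfl
    rw [mul_zero] at hd
    exact hs.ne hd
  let a : Fˣ := (Units.mk0 d hd0)⁻¹
  have ha : (a : F) * a * l = 1 := by
    show d⁻¹ * d⁻¹ * l = 1
    rw [hd]
    field_simp
  have h1 := (isSS_scal (Q := Q) a).mul hs
  have e : (a : F) * a * (RingEquiv.refl F) l = 1 := ha
  rw [e] at h1
  exact ⟨_, _, h1, a, Subtype.ext rfl⟩

theorem Psi_scal_mul (hG : Good Q) (a : Fˣ) (M : Gam Q) : Psi Q (scal Q a * M) = Psi Q M := by
  have : scal Q a ∈ (Psi Q).ker := by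
    rw [ker_Psi hG]
    exact ⟨a, rfl⟩
  rw [map_mul, MonoidHom.mem_ker.1 this, one_mul]

/-- inner automorphisms -/
abbrev Inn (Q : QuadraticForm F (ι → F)) : Subgroup (MulAut (↥(E Q) ⧸ Subgroup.center ↥(E Q))) :=
  (MulAut.conj : (↥(E Q) ⧸ Subgroup.center ↥(E Q)) →* _).range

theorem Psi_lg_mem {g : (ι → F) ≃ₗ[F] (ι → F)} (hg : g ∈ E Q) : Psi Q (lg hg) ∈ Inn Q := ⟨_, (Psi_lg hg).symm⟩

variable {A : Subgroup (MulAut (↥(E Q) ⧸ Subgroup.center ↥(E Q)))}

/-- Transfer. -/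
theorem trans (hG : Good Q) (hQ : (polarBilin Q).Nondegenerate) (h5 : 5 ≤ Fintype.card ι) (hA : Inn Q ≤ A)
    {σ : F ≃+* F} {M N : Equiv.Perm (ι → F)} (hM : IsSS Q σ 1 M) (hMA : Psi Q (gm hM) ∈ A) (hN : IsSS Q σ 1 N)
    {z : (ι → F) ≃ₗ[F] (ι → F)} (hz : z ∈ OQ (⇑Q)) (hz' : z ∉ Om Q) :
    Psi Q (gm hN) ∈ A ∨ ∃ (K : Equiv.Perm (ι → F)) (hK : IsSS Q σ 1 K), K = lp F (ι → F) z * N ∧ Psi Q (gm hK) ∈ A := by
  obtain ⟨g, hg, hgN⟩ := exists_lin hM hN
  by_cases hgm : g ∈ Om Q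
  · left
    have hg' : g⁻¹ ∈ E Q := by rw [← Om_eq hG]; exact (Om Q).inv_mem hgm
    have h1 : gm hN = lg hg' * gm hM := by
      apply Subtype.ext
      show N = lp F (ι → F) g⁻¹ * M
      rw [← hgN, ← mul_assoc, ← map_mul, inv_mul_cancel, map_one, one_mul]
    rw [h1, map_mul]
    exact A.mul_mem (hA (Psi_lg_mem hg')) hMA
  · right
    have hzg : z * g⁻¹ ∈ Om Q := by
      rw [mul_mem_Om_iff hQ h5 hz ((OQ _).inv_mem hg)]
      exact ⟨fun h => absurd h hz', fun h => absurd ((Om Q).inv_mem_iff.1 h) hgm⟩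
    have hg' : z * g⁻¹ ∈ E Q := by rw [← Om_eq hG]; exact hzg
    have hK : IsSS Q σ 1 (lp F (ι → F) z * N) := by
      have h1 := (isSS_lp hz).mul hN
      rw [map_one, one_mul] at h1
      exact h1
    have h1 : gm hK = lg hg' * gm hM := by
      apply Subtype.ext
      show lp F (ι → F) z * N = lp F (ι → F) (z * g⁻¹) * M
      rw [← hgN, ← mul_assoc, ← map_mul, inv_mul_cancel_right]
    refine ⟨_, hK, rfl, ?_⟩
    rw [h1, map_mul]
    exact A.mul_mem (hA (Psi_lg_mem hg')) hMA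

/-- not a scalar -/
theorem notMem_ker (hG : Good Q) {σ : F ≃+* F} {N : Equiv.Perm (ι → F)} (hN : IsSS Q σ 1 N) {v : ι → F} (hv : v ≠ 0)
    (hNv : N v = v) (hN1 : N ≠ 1) : Psi Q (gm hN) ≠ 1 := by
  intro h
  have h0 : gm hN ∈ (Psi Q).ker := h
  rw [ker_Psi hG] at h0
  obtain ⟨a, ha⟩ := h0
  have h1 : N v = (a : F) • v := by
    rw [← scal_apply (Q := Q) a v, ha]
    rfl
  rw [hNv] at h1
  have h2 : (a : F) = 1 := by
    have h3 : ((a : F) - 1) • v = 0 := by rw [sub_smul, one_smul, ← h1, sub_self]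
    rcases smul_eq_zero.1 h3 with h4 | h4
    · exact sub_eq_zero.1 h4
    · exact absurd h4 hv
  apply hN1
  apply Equiv.ext
  intro w
  have h3 : N w = (a : F) • w := by
    rw [← scal_apply (Q := Q) a w, ha]
    rfl
  rw [h3, h2, one_smul]
  rfl

/-- **the element of order `2 l`** -/
theorem exists_two_mul (hG : Good Q) (hQ : (polarBilin Q).Nondegenerate) (h5 : 5 ≤ Fintype.card ι)
    (hev : Even (Fintype.card ι)) (hA : Inn Q ≤ A) {σ : F ≃+* F} {N : Equiv.Perm (ι → F)} (hN : IsSS Q σ 1 N)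
    (hNA : Psi Q (gm hN) ∈ A) (hN2 : N * N = 1) (hN1 : N ≠ 1)
    {a b : Fin 3 → ι → F} (hfr : CovTwo.Fr (polarBilin Q) a b) (hQa : ∀ i, Q (a i) = 0) (hQb : ∀ i, Q (b i) = 0)
    (ha : ∀ i, N (a i) = a i) (hb : ∀ i, N (b i) = b i) (ha0 : a 0 ≠ 0) {v : ι → F} (hv : v ≠ 0)
    (hva : ∀ i, polar Q v (a i) = 0) (hvb : ∀ i, polar Q v (b i) = 0) {l : ℕ} (hl : l.Prime) (hl2 : l ≠ 2)
    {g h : Matrix (Fin 3) (Fin 3) F} (hhg : h * g = 1) (hgh : g * h = 1) (hgl : g ^ l = 1) (hhl : h ^ l = 1) (hg1 : g ≠ 1)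
    (hσg : ∀ i j, σ (g i j) = g i j) (hσh : ∀ i j, σ (h i j) = h i j) : ∃ γ ∈ A, orderOf γ = 2 * l := by
  classical
  let M : (Matrix (Fin 3 ⊕ Fin 3) (Fin 3 ⊕ Fin 3) F)ˣ := ⟨lv g h, lv h g, by rw [lv_mul, hgh, lv_one],
    by rw [lv_mul, hhg, lv_one]⟩
  have hMl : M ^ l = 1 := by
    apply Units.ext
    rw [Units.val_pow_eq_pow_val]
    show lv g h ^ l = 1
    rw [lv_pow, hgl, hhl, lv_one]
  have hM1 : M ≠ 1 := by
    intro hM
    have h3 := congrArg Units.val hM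
    rw [Units.val_one, ← lv_one] at h3
    exact hg1 (Matrix.fromBlocks_inj.1 h3).1
  set H := exU hfr M with hH
  have hHl : H ^ l = 1 := by rw [hH, ← map_pow, hMl, map_one]
  have hHQ : H ∈ OQ (⇑Q) := fun v => Q_ex (qf_of Q) hfr hQa hQb (qp_lv hhg) v
  have hHm : H ∈ Om Q := mem_Om_of_odd hQ h5 hev hHQ (hl.odd_of_ne_two hl2) hHl
  have hHE : H ∈ E Q := by rw [← Om_eq hG]; exact hHm
  have hHv : H v = v := by
    show CovTwo.ex (polarBilin Q) a b M.1 v = v
    rw [CovTwo.ex_apply]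
    have h1 : CovTwo.co (polarBilin Q) a b v = 0 := by
      funext i
      rcases i with i | i
      · rw [CovTwo.co_inl]
        exact hvb i
      · rw [CovTwo.co_inr]
        exact hva i
    rw [h1, Matrix.mulVec_zero, map_zero, add_zero]
  have hHss : IsSS Q (RingEquiv.refl F) 1 (lp F (ι → F) H) := isSS_lp hHQ
  have hH1 : lp F (ι → F) H ≠ 1 := by
    intro h3
    apply hM1
    apply exU_injective hfr
    rw [map_one]
    exact lp_injective (by rw [map_one]; exact h3)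
  have hPH : Psi Q (gm hHss) ≠ 1 := notMem_ker hG hHss hv hHv hH1
  have hPN : Psi Q (gm hN) ≠ 1 := notMem_ker hG hN ha0 (ha 0) hN1
  have hoH : orderOf (Psi Q (gm hHss)) = l := by
    have := Fact.mk hl
    refine orderOf_eq_prime ?_ hPH
    rw [← map_pow]
    have : gm hHss ^ l = 1 := Subtype.ext (by
      rw [Subgroup.coe_pow]
      show lp F (ι → F) H ^ l = 1
      rw [← map_pow, hHl, map_one])
    rw [this, map_one]
  have hoN : orderOf (Psi Q (gm hN)) = 2 := by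
    refine orderOf_eq_prime ?_ hPN
    rw [← map_pow]
    have : gm hN ^ 2 = 1 := Subtype.ext (by
      rw [Subgroup.coe_pow]
      show N ^ 2 = 1
      rw [pow_two, hN2])
    rw [this, map_one]
  have hcomm : Commute (gm hN) (gm hHss) := by
    apply Subtype.ext
    apply Equiv.ext
    intro v
    show N (H v) = H (N v)
    refine comm_ex hN ha hb ?_ v
    intro i j
    show σ (lv g h i j) = lv g h i j
    rcases i with i | i <;> rcases j with j | j
    · exact hσg i j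
    · show σ 0 = 0
      exact map_zero σ
    · show σ 0 = 0
      exact map_zero σ
    · exact hσh j i
  have hcomm' : Commute (Psi Q (gm hN)) (Psi Q (gm hHss)) := hcomm.map (Psi Q)
  refine ⟨Psi Q (gm hN) * Psi Q (gm hHss), A.mul_mem hNA (hA ?_), ?_⟩
  · have : gm hHss = lg hHE := Subtype.ext rfl
    rw [this]
    exact Psi_lg_mem hHE
  · rw [hcomm'.orderOf_mul_eq_mul_orderOf_of_coprime, hoN, hoH]
    rw [hoN, hoH]
    exact Nat.coprime_two_left.2 (hl.odd_of_ne_two hl2)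

end General

/-! ### `PΩ⁺₈(q)` -/

theorem good_four : Good (quadPlus 4 F) := by
  rw [← plus_eq, AutOrth.Main.plusForm_eq]
  exact AutOrth.Main.good_plus (by omega)

/-- the last swap -/
def sw : Equiv.Perm (Fin 4 ⊕ Fin 4) := Equiv.swap (Sum.inl 3) (Sum.inr 3)

theorem sw_inl (k : Fin 3) : sw (Sum.inl (Fin.castLE (by norm_num : 3 ≤ 4) k)) = Sum.inl (Fin.castLE (by norm_num) k) := by
  apply Equiv.swap_apply_of_ne_of_ne
  · intro h
    have := congrArg Fin.val (Sum.inl.inj h)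
    have h2 := k.2
    have h3 : (Fin.castLE (by norm_num : 3 ≤ 4) k : ℕ) = k := rfl
    rw [h3] at this
    have h4 : ((3 : Fin 4) : ℕ) = 3 := rfl
    omega
  · simp

theorem sw_inr (k : Fin 3) : sw (Sum.inr (Fin.castLE (by norm_num : 3 ≤ 4) k)) = Sum.inr (Fin.castLE (by norm_num) k) := by
  apply Equiv.swap_apply_of_ne_of_ne
  · simp
  · intro h
    have := congrArg Fin.val (Sum.inr.inj h)
    have h2 := k.2
    have h3 : (Fin.castLE (by norm_num : 3 ≤ 4) k : ℕ) = k := rfl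
    rw [h3] at this
    have h4 : ((3 : Fin 4) : ℕ) = 3 := rfl
    omega

theorem card_four : Fintype.card (Fin 4 ⊕ Fin 4) = 8 := by simp

theorem sw_notMem : cpl (F := F) sw ∉ Om (quadPlus 4 F) := by
  have h1 := finrank_swap (F := F) (x := (Sum.inl 3 : Fin 4 ⊕ Fin 4)) (y := Sum.inr 3) (by simp)
  rw [card_four] at h1
  refine notMem_Om_of_odd quadPlus_nondegenerate (by rw [card_four]; omega) (by rw [card_four]; decide) ?_
  exact ⟨3, by show finrank F (bV (cpl (F := F) (Equiv.swap (Sum.inl 3) (Sum.inr 3)))) = _; omega⟩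

variable {A : Subgroup (MulAut (↥(E (quadPlus 4 F)) ⧸ Subgroup.center ↥(E (quadPlus 4 F))))}

/-- an involution `cps σ ρ` in `A` -/
theorem of_cps (hA : Inn (quadPlus 4 F) ≤ A) {σ : F ≃+* F} (h2 : ∀ x, σ (σ x) = x) {ρ : Equiv.Perm (Fin 4 ⊕ Fin 4)}
    (hρ : ∀ v : Fin 4 ⊕ Fin 4 → F, quadPlus 4 F (fun x => v (ρ x)) = quadPlus 4 F v) (hρ2 : ∀ x, ρ (ρ x) = x)
    (hl : ∀ k : Fin 3, ρ (Sum.inl (Fin.castLE (by norm_num : 3 ≤ 4) k)) = Sum.inl (Fin.castLE (by norm_num) k))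
    (hr : ∀ k : Fin 3, ρ (Sum.inr (Fin.castLE (by norm_num : 3 ≤ 4) k)) = Sum.inr (Fin.castLE (by norm_num) k))
    (hne : cps σ ρ ≠ 1) (hNA : Psi (quadPlus 4 F) (gm (isSS_cps (σ := σ) hρ)) ∈ A) :
    ∃ l, Zs (Fintype.card F) l 0 3 ∧ ∃ γ ∈ A, orderOf γ = 2 * l := by
  classical
  have hmat : ∃ l, Zs (Fintype.card F) l 0 3 ∧ ∃ g h : Matrix (Fin 3) (Fin 3) F, h * g = 1 ∧ g * h = 1 ∧ g ^ l = 1 ∧
      h ^ l = 1 ∧ g ≠ 1 ∧ (∀ i j, σ (g i j) = g i j) ∧ ∀ i j, σ (h i j) = h i j := by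
    by_cases h1 : ∃ x, σ x ≠ x
    · exact exists_mat h1 h2 (m := 3) (by decide) le_rfl
    · push Not at h1
      obtain ⟨l, hz⟩ := exists_zs (F := F) (e := 3) (by omega) (by omega)
      have hld : l ∣ Fintype.card F ^ 3 - 1 := by
        have := (hz.hq 3).2 dvd_rfl
        rwa [zero_add, pow_one] at this
      obtain ⟨g, hg⟩ := exists_GL (F0 := F) hz.hl hld (by omega)
      have hgl : g ^ l = 1 := by rw [← hg, pow_orderOf_eq_one]
      have hginv : (g⁻¹) ^ l = 1 := by rw [inv_pow, hgl, inv_one]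
      refine ⟨l, hz, (g : Matrix (Fin 3) (Fin 3) F), ((g⁻¹ : GL (Fin 3) F) : Matrix (Fin 3) (Fin 3) F), ?_, ?_, ?_, ?_,
        ?_, fun _ _ => h1 _, fun _ _ => h1 _⟩
      · rw [← Units.val_mul, inv_mul_cancel, Units.val_one]
      · rw [← Units.val_mul, mul_inv_cancel, Units.val_one]
      · rw [← Units.val_pow_eq_pow_val, hgl, Units.val_one]
      · rw [← Units.val_pow_eq_pow_val, hginv, Units.val_one]
      · intro h
        have h4 : g = 1 := Units.ext h
        rw [h4, orderOf_one] at hg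
        exact hz.hl.one_lt.ne hg
  obtain ⟨l, hz, g, h, hhg, hgh, hgl, hhl, hg1, hσg, hσh⟩ := hmat
  refine ⟨l, hz, ?_⟩
  have hfr := frame_plus (F := F) (m := 3) (n := 4) (by norm_num)
  refine exists_two_mul good_four quadPlus_nondegenerate (by rw [card_four]; omega) (by rw [card_four]; decide) hA
    (isSS_cps (σ := σ) hρ) hNA ?_ hne hfr (fun i => plus_inl _) (fun i => plus_inr _) (fun i => cps_fix σ (hl i))
    (fun i => cps_fix σ (hr i)) ?_ (v := Pi.single (Sum.inl 3) 1) ?_ ?_ ?_ hz.hl hz.hl2 hhg hgh hgl hhl hg1 hσg hσh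
  · apply Equiv.ext
    intro v
    funext x
    show σ (σ (v (ρ (ρ x)))) = v x
    rw [h2, hρ2]
  · intro h0
    have := congrFun h0 (Sum.inl (Fin.castLE (by norm_num) (0 : Fin 3)))
    rw [Pi.single_eq_same] at this
    exact one_ne_zero this
  · intro h0
    have := congrFun h0 (Sum.inl 3)
    rw [Pi.single_eq_same] at this
    exact one_ne_zero this
  · intro i
    rw [polar_quadPlus]
    apply Finset.sum_eq_zero
    intro k _
    fin_cases i <;> fin_cases k <;> simp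
  · intro i
    rw [polar_quadPlus]
    apply Finset.sum_eq_zero
    intro k _
    fin_cases i <;> fin_cases k <;> simp

theorem cps_ne_one {σ : F ≃+* F} {ρ : Equiv.Perm (Fin 4 ⊕ Fin 4)} (h : (∃ x, σ x ≠ x) ∨ ρ (Sum.inl 3) ≠ Sum.inl 3) :
    cps σ ρ ≠ 1 := by
  classical
  intro h0
  rcases h with ⟨x, hx⟩ | h
  · exact hx (congrFun (congrArg (fun t : Equiv.Perm (Fin 4 ⊕ Fin 4 → F) => t (fun _ => x)) h0) (Sum.inl 3))
  · have h1 := congrFun (congrArg (fun t : Equiv.Perm (Fin 4 ⊕ Fin 4 → F) => t (Pi.single (Sum.inl 3) 1)) h0) (Sum.inl 3)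
    have h2 : σ ((Pi.single (Sum.inl 3) 1 : Fin 4 ⊕ Fin 4 → F) (ρ (Sum.inl 3))) =
      (Pi.single (Sum.inl 3) 1 : Fin 4 ⊕ Fin 4 → F) (Sum.inl 3) := h1
    rw [Pi.single_eq_same, Pi.single_eq_of_ne h, map_zero] at h2
    exact zero_ne_one h2

theorem sw_ne : sw (Sum.inl 3) ≠ Sum.inl 3 := by
  show Equiv.swap (Sum.inl 3) (Sum.inr 3) (Sum.inl 3) ≠ Sum.inl 3
  rw [Equiv.swap_apply_left]
  simp

theorem sw_sw (x : Fin 4 ⊕ Fin 4) : sw (sw x) = x := Equiv.swap_apply_self _ _ _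

theorem sw_form (v : Fin 4 ⊕ Fin 4 → F) : quadPlus 4 F (fun x => v (sw x)) = quadPlus 4 F v := quadPlus_gam 3 v

theorem sw_mem : cpl (F := F) sw ∈ OQ (⇑(quadPlus 4 F)) := cpl_mem sw_form

set_option maxHeartbeats 1600000 in
/-- **an element of 2-power order induced by a semilinear isometry** -/
theorem core (hA : Inn (quadPlus 4 F) ≤ A) (M : Gam (quadPlus 4 F)) (hM : Psi _ M ∈ A) (hM' : Psi _ M ∉ Inn (quadPlus 4 F))
    {b : ℕ} (hb : Psi _ M ^ 2 ^ b = 1) : ∃ l, Zs (Fintype.card F) l 0 3 ∧ ∃ γ ∈ A, orderOf γ = 2 * l := by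
  classical
  have hG := good_four (F := F)
  have hQ : (polarBilin (quadPlus 4 F)).Nondegenerate := quadPlus_nondegenerate
  have h5 : 5 ≤ Fintype.card (Fin 4 ⊕ Fin 4) := by rw [card_four]; omega
  obtain ⟨σ, N, hN, a, hNM⟩ := exists_norm M
  have hP : Psi _ (gm hN) = Psi _ M := by rw [hNM, Psi_scal_mul hG]
  have hfinA : Finite (RingAut F) := Finite.of_injective (fun t : RingAut F => (t : F → F)) DFunLike.coe_injective
  set s : RingAut F := σ with hs
  have hs0 : orderOf s ≠ 0 := (orderOf_pos s).ne'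
  obtain ⟨a', k', hk', hk⟩ := Nat.exists_eq_two_pow_mul_odd hs0
  -- the odd part
  have hpow : ∀ j : ℕ, gm (IsSS.pow hN j) = gm hN ^ j := by
    intro j
    apply Subtype.ext
    rw [Subgroup.coe_pow]
    rfl
  have hPk : Psi _ (gm (IsSS.pow hN k')) ∉ Inn (quadPlus 4 F) := by
    intro h
    apply hM'
    rw [hpow, map_pow, hP] at h
    have h2 : k'.Coprime (orderOf (Psi _ M)) := by
      have h3 : orderOf (Psi _ M) ∣ 2 ^ b := orderOf_dvd_of_pow_eq_one hb
      exact (Nat.Coprime.coprime_dvd_left h3 ((Nat.coprime_two_left.2 hk').pow_left b)).symm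
    obtain ⟨m, hm⟩ := exists_pow_eq_self_of_coprime h2
    rw [← hm]
    exact (Inn (quadPlus 4 F)).pow_mem h m
  have hPkA : Psi _ (gm (IsSS.pow hN k')) ∈ A := by
    rw [hpow, map_pow, hP]
    exact A.pow_mem hM k'
  rcases Nat.eq_zero_or_pos a' with ha | ha
  · -- linear
    have hsk : s ^ k' = 1 := by
      rw [ha, pow_zero, one_mul] at hk
      rw [← hk, pow_orderOf_eq_one]
    have hss : IsSS (quadPlus 4 F) (RingEquiv.refl F) 1 (N ^ k') := by
      have h1 := IsSS.pow hN k'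
      rw [hsk] at h1
      exact h1
    have hPk2 : gm hss = gm (IsSS.pow hN k') := rfl
    rw [← hPk2] at hPk hPkA
    have hone : IsSS (quadPlus 4 F) (RingEquiv.refl F) 1 (1 : Equiv.Perm (Fin 4 ⊕ Fin 4 → F)) :=
      ⟨one_ne_zero, fun _ _ => rfl, fun _ _ => rfl, fun _ => by rw [one_mul]; rfl⟩
    obtain ⟨g, hg, hgN⟩ := exists_lin hss hone
    rw [mul_one] at hgN
    have hgm : g ∉ Om (quadPlus 4 F) := by
      intro hgm
      apply hPk
      have hgE : g ∈ E (quadPlus 4 F) := by rw [← Om_eq hG]; exact hgm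
      have : gm hss = lg hgE := Subtype.ext hgN.symm
      rw [this]
      exact Psi_lg_mem hgE
    have hzg : cpl sw * g⁻¹ ∈ Om (quadPlus 4 F) := by
      rw [mul_mem_Om_iff hQ h5 sw_mem ((OQ _).inv_mem hg)]
      exact ⟨fun h => absurd h sw_notMem, fun h => absurd ((Om _).inv_mem_iff.1 h) hgm⟩
    have hzE : cpl sw * g⁻¹ ∈ E (quadPlus 4 F) := by rw [← Om_eq hG]; exact hzg
    have hN1 : IsSS (quadPlus 4 F) (RingEquiv.refl F) 1 (cps (RingEquiv.refl F) sw) := isSS_cps sw_form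
    have h1 : gm hN1 = lg hzE * gm hss := by
      apply Subtype.ext
      show cps (RingEquiv.refl F) sw = lp F _ (cpl sw * g⁻¹) * (N ^ k')
      rw [← hgN, ← map_mul, inv_mul_cancel_right]
      rfl
    have h2 : Psi _ (gm hN1) ∈ A := by
      rw [h1, map_mul]
      exact A.mul_mem (hA (Psi_lg_mem hzE)) hPkA
    exact of_cps (A := A) hA (σ := RingEquiv.refl F) (fun _ => rfl) (ρ := sw) sw_form sw_sw sw_inl sw_inr
      (cps_ne_one (Or.inr sw_ne)) h2
  · -- a field automorphism of order two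
    set j := k' * 2 ^ (a' - 1) with hj
    have hord : orderOf (s ^ j) = 2 := by
      have h1 : orderOf s = 2 * j := by
        rw [hk, hj]
        obtain ⟨c, rfl⟩ : ∃ c, a' = c + 1 := ⟨a' - 1, by omega⟩
        rw [Nat.add_sub_cancel]
        ring
      have hj0 : j ≠ 0 := by
        intro h0
        rw [h0, mul_zero] at h1
        exact hs0 h1
      rw [orderOf_pow_of_dvd hj0 ⟨2, by rw [h1, mul_comm]⟩, h1, Nat.mul_div_cancel _ (Nat.pos_of_ne_zero hj0)]
    set τ : F ≃+* F := (s ^ j : RingAut F) with hτ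
    have h1 : ∃ x, τ x ≠ x := by
      by_contra hcon
      push Not at hcon
      have h3 : orderOf (τ : RingAut F) = 2 := hord
      have : (τ : RingAut F) = 1 := RingEquiv.ext hcon
      rw [this, orderOf_one] at h3
      omega
    have h2 : ∀ x, τ (τ x) = x := by
      intro x
      have h0 : orderOf (τ : RingAut F) = 2 := hord
      have h3 : (τ : RingAut F) ^ 2 = 1 := by rw [← h0, pow_orderOf_eq_one]
      rw [pow_two] at h3
      exact DFunLike.congr_fun h3 x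
    have hMj : IsSS (quadPlus 4 F) τ 1 (N ^ j) := IsSS.pow hN j
    have hMjA : Psi _ (gm hMj) ∈ A := by
      have : gm hMj = gm hN ^ j := hpow j
      rw [this, map_pow, hP]
      exact A.pow_mem hM j
    have hN1 : IsSS (quadPlus 4 F) τ 1 (cps τ 1) := isSS_cps (ρ := 1) fun v => rfl
    rcases trans hG hQ h5 hA hMj hMjA hN1 sw_mem sw_notMem with h | ⟨K, hK, hKe, hKA⟩
    · exact of_cps (A := A) hA h2 (ρ := 1) (fun v => rfl) (fun _ => rfl) (fun _ => rfl) (fun _ => rfl)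
        (cps_ne_one (Or.inl h1)) h
    · have e : K = cps τ sw := by rw [hKe]; rfl
      subst e
      exact of_cps (A := A) hA h2 (ρ := sw) sw_form sw_sw sw_inl sw_inr (cps_ne_one (Or.inr sw_ne)) hKA

/-- passing to a subgroup of index three -/
theorem two_part_abs {G : Type*} [Group G] [Finite G] {Γ I A : Subgroup G} (hI : I.Normal) (hidx : Γ.index = 3)
    {R : ℕ → Prop} {b : ℕ} (hcore : ∀ A : Subgroup G, I ≤ A → ∀ x ∈ Γ, x ∈ A → x ∉ I → x ^ 2 ^ b = 1 →
      ∃ l, R l ∧ ∃ γ ∈ A, orderOf γ = 2 * l) (hA : I ≤ A) {α : G} (hα : α ∈ A) (hα' : α ∉ I) (hb : α ^ 2 ^ b = 1) :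
    ∃ l, R l ∧ ∃ γ ∈ A, orderOf γ = 2 * l := by
  -- a fixed coset
  obtain ⟨g, hg⟩ : ∃ g : G, g⁻¹ * α * g ∈ Γ := by
    have hp : IsPGroup 2 (Subgroup.zpowers α) := by
      rw [IsPGroup.iff_orderOf]
      intro ⟨x, hx⟩
      obtain ⟨k, rfl⟩ := hx
      have h1 : orderOf (⟨α ^ k, ⟨k, rfl⟩⟩ : Subgroup.zpowers α) ∣ 2 ^ b := by
        apply orderOf_dvd_of_pow_eq_one
        apply Subtype.ext
        rw [Subgroup.coe_pow, Subgroup.coe_one]
        show (α ^ k) ^ 2 ^ b = 1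
        rw [← zpow_natCast, ← zpow_mul, mul_comm, zpow_mul, zpow_natCast, hb, one_zpow]
      obtain ⟨c, -, hc⟩ := (Nat.dvd_prime_pow Nat.prime_two).1 h1
      exact ⟨c, hc⟩
    have : Fact (Nat.Prime 2) := ⟨Nat.prime_two⟩
    have h1 := hp.card_modEq_card_fixedPoints (G ⧸ Γ)
    have h2 : Nat.card (G ⧸ Γ) = 3 := hidx
    rw [h2] at h1
    have h3 : Nat.card (MulAction.fixedPoints (Subgroup.zpowers α) (G ⧸ Γ)) ≠ 0 := by
      intro h0
      rw [h0] at h1
      exact absurd h1 (by decide)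
    obtain ⟨⟨x, hx⟩⟩ : Nonempty (MulAction.fixedPoints (Subgroup.zpowers α) (G ⧸ Γ)) := by
      by_contra hcon
      rw [not_nonempty_iff] at hcon
      exact h3 Nat.card_of_isEmpty
    obtain ⟨g, rfl⟩ := QuotientGroup.mk_surjective x
    refine ⟨g, ?_⟩
    have h4 : (QuotientGroup.mk (α * g) : G ⧸ Γ) = QuotientGroup.mk g := hx ⟨α, Subgroup.mem_zpowers α⟩
    have h5 := QuotientGroup.eq.1 h4.symm
    rw [mul_assoc]
    exact h5
  -- conjugate
  set c : G ≃* G := MulAut.conj g⁻¹ with hc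
  have hcx : ∀ x, c x = g⁻¹ * x * g := fun x => by rw [hc, MulAut.conj_apply, inv_inv]
  have hInn : ∀ x, c x ∈ I ↔ x ∈ I := by
    intro x
    rw [hcx]
    constructor
    · intro h
      have := hI.conj_mem _ h g
      have e : g * (g⁻¹ * x * g) * g⁻¹ = x := by group
      rwa [e] at this
    · intro h
      have := hI.conj_mem _ h g⁻¹
      rwa [inv_inv] at this
  have hA' : I ≤ A.map c.toMonoidHom := by
    intro x hx
    refine ⟨c.symm x, hA ((hInn _).1 ?_), c.apply_symm_apply x⟩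
    rw [c.apply_symm_apply]
    exact hx
  obtain ⟨l, hl, _, ⟨γ, hγ, rfl⟩, hγo⟩ := hcore _ hA' (c α) (by rw [hcx]; exact hg) ⟨α, hα, rfl⟩
    (by rw [hInn]; exact hα') (by rw [← map_pow, hb, map_one])
  refine ⟨l, hl, γ, hγ, ?_⟩
  rw [← hγo]
  exact (MulEquiv.orderOf_eq c γ).symm

theorem normal_inn {P : Type*} [Group P] : (MulAut.conj : P →* MulAut P).range.Normal := by
  refine ⟨?_⟩
  rintro _ ⟨y, rfl⟩ g
  refine ⟨g y, ?_⟩
  ext z
  show g y * z * (g y)⁻¹ = g (y * g⁻¹ z * y⁻¹)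
  rw [map_mul, map_mul, map_inv]
  congr 2
  exact (g.apply_symm_apply z).symm

theorem finite_mulAut {P : Type*} [Group P] [Finite P] : Finite (MulAut P) :=
  Finite.of_injective (fun g : MulAut P => (g : P → P)) DFunLike.coe_injective

/-- **an element of 2-power order** -/
theorem two_part (hA : Inn (quadPlus 4 F) ≤ A) {α : MulAut (↥(E (quadPlus 4 F)) ⧸ Subgroup.center ↥(E (quadPlus 4 F)))}
    (hα : α ∈ A) (hα' : α ∉ Inn (quadPlus 4 F)) {b : ℕ} (hb : α ^ 2 ^ b = 1) :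
    ∃ l, Zs (Fintype.card F) l 0 3 ∧ ∃ γ ∈ A, orderOf γ = 2 * l := by
  classical
  have hidx : (Psi (quadPlus 4 F)).range.index = 3 := by
    have h1 := AutOrth.Final.index_plus_four (F := F)
    rw [plus_eq] at h1
    exact h1
  have : Finite ((Fin 4 ⊕ Fin 4 → F) ≃ₗ[F] (Fin 4 ⊕ Fin 4 → F)) :=
    Finite.of_injective (fun g : (Fin 4 ⊕ Fin 4 → F) ≃ₗ[F] (Fin 4 ⊕ Fin 4 → F) => (g : (Fin 4 ⊕ Fin 4 → F) → _))
      DFunLike.coe_injective
  have hfin := finite_mulAut (P := ↥(E (quadPlus 4 F)) ⧸ Subgroup.center ↥(E (quadPlus 4 F)))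
  refine two_part_abs normal_inn hidx (R := fun l => Zs (Fintype.card F) l 0 3) (b := b) ?_ hA hα hα' hb
  rintro A hA _ ⟨M, rfl⟩ hM hM' hb
  exact core hA M hM hM' hb

open Cfsg.Agent.H376.Six

theorem not_ub2 {l : ℕ} (hl : Zs (Fintype.card F) l 0 3) : ¬ UB2 (Fintype.card F) (2 * l) := by
  obtain ⟨f, hf0, hf⟩ := Odd.exists_card (F := F)
  set q := Fintype.card F with hq
  have hq2 : 2 ∣ q := by rw [hf]; exact dvd_pow_self 2 hf0.ne'
  have hq0 : 1 < q := Fintype.one_lt_card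
  have hpos : ∀ k, 1 ≤ q ^ k := fun k => Nat.one_le_pow _ _ (by omega)
  have hev : ∀ k, 0 < k → 2 ∣ q ^ k := fun k hk => hq2.trans (dvd_pow_self q hk.ne')
  have hld : ∀ m, l ∣ q ^ m - 1 ↔ 3 ∣ m := fun m => by
    have := hl.hq m
    rwa [zero_add, pow_one] at this
  have hl2 : Nat.Coprime l 2 := Nat.coprime_two_right.2 (hl.hl.odd_of_ne_two hl.hl2)
  have h2l : ∀ {n}, 2 * l ∣ n → l ∣ n := fun h => (Dvd.intro_left 2 rfl).trans h
  have h22 : ∀ {n}, 2 * l ∣ n → 2 ∣ n := fun h => (Dvd.intro l rfl).trans h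
  rintro (h | h | h | h | h | h | h | h)
  · have h1 := h22 h
    have h2 := hev 3 (by norm_num)
    have h3 := hpos 3
    omega
  · have h1 := h22 h
    have h2 := hev 3 (by norm_num)
    omega
  · have h1 := h22 h
    have h2 := hev 4 (by norm_num)
    have h3 := hpos 4
    omega
  · have h1 : l ∣ q ^ 2 + 1 := hl2.dvd_of_dvd_mul_left (h2l h)
    have h2 : l ∣ q ^ 4 - 1 := by
      have e : q ^ 4 - 1 = (q ^ 2 + 1) * (q ^ 2 - 1) := by
        have := Nat.sq_sub_sq (q ^ 2) 1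
        rw [one_pow, ← pow_mul] at this
        exact this
      rw [e]
      exact h1.mul_right _
    have h3 := (hld 4).1 h2
    omega
  · have h1 : l ∣ q ^ 2 - 1 := hl2.dvd_of_dvd_mul_left (h2l h)
    have h3 := (hld 2).1 h1
    omega
  · have h1 : l ∣ q + 1 := (hl2.pow_right 2).dvd_of_dvd_mul_left (by simpa using h2l h)
    have h2 : l ∣ q ^ 2 - 1 := by
      have e : q ^ 2 - 1 = (q + 1) * (q - 1) := by
        have := Nat.sq_sub_sq q 1
        rwa [one_pow] at this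
      rw [e]
      exact h1.mul_right _
    have h3 := (hld 2).1 h2
    omega
  · have h1 : l ∣ q - 1 := (hl2.pow_right 2).dvd_of_dvd_mul_left (by simpa using h2l h)
    have h3 := (hld 1).1 (by rwa [pow_one])
    omega
  · have h1 : l ∣ 2 ^ 3 := by simpa using h2l h
    have h2 := hl.hl.dvd_of_dvd_pow h1
    exact hl.hl2 ((Nat.prime_dvd_prime_iff_eq hl.hl Nat.prime_two).1 h2)

theorem not_ub2_eight {s : ℕ} (hs : s.Prime) (hs2 : s ≠ 2) : ¬ UB2 (Fintype.card F) (8 * s) := by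
  obtain ⟨f, hf0, hf⟩ := Odd.exists_card (F := F)
  set q := Fintype.card F with hq
  have hq2 : 2 ∣ q := by rw [hf]; exact dvd_pow_self 2 hf0.ne'
  have hq0 : 1 < q := Fintype.one_lt_card
  have hpos : ∀ k, 1 ≤ q ^ k := fun k => Nat.one_le_pow _ _ (by omega)
  have hev : ∀ k, 0 < k → 2 ∣ q ^ k := fun k hk => hq2.trans (dvd_pow_self q hk.ne')
  have h8 : ∀ {n}, 8 * s ∣ n → 8 ∣ n := fun h => (Dvd.intro s rfl).trans h
  have e2 := hev 2 (by norm_num)
  have e3 := hev 3 (by norm_num)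
  have e4 := hev 4 (by norm_num)
  have p2 := hpos 2
  have p3 := hpos 3
  have p4 := hpos 4
  rintro (h | h | h | h | h | h | h | h)
  all_goals first | (have h1 := h8 h; omega) | skip
  have h1 : s ∣ 2 ^ 3 := by
    have : s ∣ 8 := (Dvd.intro_left 8 rfl).trans h
    simpa using this
  have h2 : s ∣ 1 := by
    obtain ⟨c, hc⟩ := h
    exact ⟨c, by
      have : 8 * 1 = 8 * (s * c) := by rw [← mul_assoc]; omega
      exact Nat.eq_of_mul_eq_mul_left (by norm_num) this⟩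
  exact hs.one_lt.ne' (Nat.dvd_one.1 h2)

/-- **`PΩ⁺₈(q)`, `q` even**, given the odd part -/
theorem out_of_odd {X : Type*} [Group X] [Finite X] (S : Subgroup X) [S.Normal]
    (hc : Subgroup.centralizer (S : Set X) = ⊥) (e : ↥S ≃* Cfsg.POmega F (Cfsg.quadFormPlus 4 F))
    (hub : ∀ x : X, UB2 (Fintype.card F) (orderOf x))
    (h8 : ∀ s : ℕ, s.Prime → s ≠ 2 → s ∣ S.index → ∃ y : X, orderOf y = 8 * s) : S = ⊤ := by
  classical
  by_contra hne
  have hG := good_four (F := F)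
  rw [← coe_quadPlus] at e
  set e' := e.trans (pomegaEquiv hG) with he'
  let ψ : X →* MulAut (↥(E (quadPlus 4 F)) ⧸ Subgroup.center ↥(E (quadPlus 4 F))) :=
    (MulAut.congr e').toMonoidHom.comp MulAut.conjNormal
  have hψ : ∀ x y, ψ x (e' y) = e' (MulAut.conjNormal x y) := by
    intro x y
    show e' (MulAut.conjNormal x (e'.symm (e' y))) = _
    rw [e'.symm_apply_apply]
  have hinj : Function.Injective ψ := by
    rw [injective_iff_map_eq_one]
    intro x hx
    have h1 : x ∈ Subgroup.centralizer (S : Set X) := by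
      rw [Subgroup.mem_centralizer_iff]
      intro s hs
      have h2 := hψ x ⟨s, hs⟩
      rw [hx] at h2
      have h3 : (⟨s, hs⟩ : S) = MulAut.conjNormal x ⟨s, hs⟩ := e'.injective h2
      have h4 := congrArg Subtype.val h3
      rw [MulAut.conjNormal_apply] at h4
      change s = x * s * x⁻¹ at h4
      rw [eq_mul_inv_iff_mul_eq] at h4
      exact h4
    rw [hc] at h1
    exact Subgroup.mem_bot.1 h1
  have hS : ∀ s : S, ψ s = MulAut.conj (e' s) := by
    intro s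
    ext z
    obtain ⟨y, rfl⟩ := e'.surjective z
    rw [hψ, MulAut.conj_apply]
    have : MulAut.conjNormal (s : X) y = s * y * s⁻¹ := Subtype.ext (by rw [MulAut.conjNormal_apply]; rfl)
    rw [this, map_mul, map_mul, map_inv]
  -- the index is a power of two
  have hidx : ∀ s : ℕ, s.Prime → s ∣ S.index → s = 2 := by
    intro s hs hd
    by_contra h2
    obtain ⟨y, hy⟩ := h8 s hs h2 hd
    have := hub y
    rw [hy] at this
    exact not_ub2_eight hs h2 this
  have hi1 : S.index ≠ 1 := fun h => hne (Subgroup.index_eq_one.1 h)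
  obtain ⟨p, hp, hpd⟩ := Nat.exists_prime_and_dvd hi1
  have hp2 := hidx p hp hpd
  subst hp2
  have : Fact (Nat.Prime 2) := ⟨Nat.prime_two⟩
  obtain ⟨z, hz⟩ := exists_prime_orderOf_dvd_card' (G := X ⧸ S) 2 hpd
  obtain ⟨x, rfl⟩ := QuotientGroup.mk_surjective z
  have hx0 : orderOf x ≠ 0 := (orderOf_pos x).ne'
  obtain ⟨b, k, hk, hxk⟩ := Nat.exists_eq_two_pow_mul_odd hx0
  set y := x ^ k with hy
  have hyb : y ^ 2 ^ b = 1 := by rw [hy, ← pow_mul, mul_comm, ← hxk, pow_orderOf_eq_one]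
  have hyS : y ∉ S := by
    intro h
    have h1 : (QuotientGroup.mk x : X ⧸ S) ^ k = 1 := by
      rw [← QuotientGroup.mk_pow]
      exact (QuotientGroup.eq_one_iff _).2 h
    have h2 := orderOf_dvd_of_pow_eq_one h1
    rw [hz] at h2
    exact (Nat.not_even_iff_odd.2 hk) (even_iff_two_dvd.2 h2)
  obtain ⟨l, hl, γ, ⟨w, rfl⟩, hγ⟩ := two_part (A := ψ.range) (α := ψ y) (b := b) (by
      rintro _ ⟨v, rfl⟩
      refine ⟨(e'.symm v : S), ?_⟩
      rw [hS, e'.apply_symm_apply]) ⟨y, rfl⟩ (by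
      rintro ⟨v, hv⟩
      apply hyS
      have h1 : ψ (e'.symm v : S) = ψ y := by rw [hS, e'.apply_symm_apply, ← hv]
      rw [← hinj h1]
      exact (e'.symm v).2) (by rw [← map_pow, hyb, map_one])
  rw [orderOf_injective ψ hinj] at hγ
  have := hub w
  rw [hγ] at this
  exact not_ub2 hl this

end Cfsg.Agent.H199.Out.DFour
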