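import Mathlib
import Cfsg.Agent.H199.Out.Dick

/-!
# Unipotent isometries in characteristic two (helper199)

`N = u - 1` for an isometry `u`:
* `half` : if `u` commutes with an isometry of odd order without fixed vectors and `dim V = 2 m` then `N ^ m = 0`;
* `cap` : if `u` has trivial Dickson invariant, `dim V = 2 m`, then `N ^ (2 m - 2) = 0` (`m ≥ 2`), `N = 0` (`m = 1`).
-/

set_option autoImplicit false
set_option linter.unusedVariables false
set_option linter.unusedSectionVars false

namespace Cfsg.Agent.H199.Out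

open Module
open Cfsg.Agent.H375.Odd

variable {F : Type*} [Field F] {V : Type*} [AddCommGroup V] [Module F V]

/-- `u - 1` -/
def nu (u : V ≃ₗ[F] V) : Module.End F V := (u : V →ₗ[F] V) - LinearMap.id

theorem nu_apply (u : V ≃ₗ[F] V) (v : V) : nu u v = u v - v := rfl

theorem range_nu (u : V ≃ₗ[F] V) : LinearMap.range (nu u) = bW u := rfl

theorem comm_nu {u g : V ≃ₗ[F] V} (h : ∀ v, g (u v) = u (g v)) (v : V) : g (nu u v) = nu u (g v) := by
  rw [nu_apply, nu_apply, map_sub, h]

theorem comm_nu_pow {u g : V ≃ₗ[F] V} (h : ∀ v, g (u v) = u (g v)) (k : ℕ) (v : V) :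
    g ((nu u ^ k) v) = (nu u ^ k) (g v) := by
  induction k generalizing v with
  | zero => rfl
  | succ k ih =>
    rw [pow_succ, Module.End.mul_apply, Module.End.mul_apply, ih, comm_nu h]

section Blocks

variable [FiniteDimensional F V]

/-- the number of blocks of maximal size -/
theorem blocks {N : Module.End F V} {k : ℕ} (h : N ^ (k + 1) = 0) :
    (k + 1) * finrank F (LinearMap.range (N ^ k)) ≤ finrank F V := by
  set d := finrank F (LinearMap.range (N ^ k)) with hd
  have step : ∀ i, i ≤ k → finrank F (LinearMap.range (N ^ (i + 1))) + d ≤ finrank F (LinearMap.range (N ^ i)) := by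
    intro i hi
    set R := LinearMap.range (N ^ i) with hR
    have h1 := LinearMap.finrank_range_add_finrank_ker (N.domRestrict R)
    have h2 : LinearMap.range (N.domRestrict R) = LinearMap.range (N ^ (i + 1)) := by
      ext v
      constructor
      · rintro ⟨⟨_, w, rfl⟩, rfl⟩
        refine ⟨w, ?_⟩
        rw [pow_succ']
        rfl
      · rintro ⟨w, rfl⟩
        refine ⟨⟨(N ^ i) w, w, rfl⟩, ?_⟩
        rw [pow_succ']
        rfl
    have h3 : d ≤ finrank F (LinearMap.ker (N.domRestrict R)) := by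
      have h4 : ∀ v ∈ LinearMap.range (N ^ k), v ∈ R := by
        rintro _ ⟨w, rfl⟩
        obtain ⟨j, rfl⟩ := Nat.exists_eq_add_of_le hi
        refine ⟨(N ^ j) w, ?_⟩
        rw [pow_add]
        rfl
      have h5 : ∀ v ∈ LinearMap.range (N ^ k), N v = 0 := by
        rintro _ ⟨w, rfl⟩
        have : (N ^ (k + 1)) w = 0 := by rw [h]; rfl
        rw [pow_succ'] at this
        exact this
      let g : LinearMap.range (N ^ k) →ₗ[F] LinearMap.ker (N.domRestrict R) :=
        { toFun := fun v => ⟨⟨v.1, h4 _ v.2⟩, by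
            rw [LinearMap.mem_ker]
            exact h5 _ v.2⟩
          map_add' := fun _ _ => rfl
          map_smul' := fun _ _ => rfl }
      exact LinearMap.finrank_le_finrank_of_injective (f := g) (by
        intro a b hab
        have := congrArg (fun x : LinearMap.ker (N.domRestrict R) => ((x : R) : V)) hab
        exact Subtype.ext this)
    rw [h2] at h1
    omega
  have main : ∀ j, j ≤ k + 1 → j * d ≤ finrank F (LinearMap.range (N ^ (k + 1 - j))) := by
    intro j
    induction j with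
    | zero => intro _; rw [zero_mul]; exact Nat.zero_le _
    | succ j ih =>
      intro hj
      have h1 := ih (by omega)
      have h2 := step (k + 1 - (j + 1)) (by omega)
      have h3 : k + 1 - (j + 1) + 1 = k + 1 - j := by omega
      rw [h3] at h2
      have : (j + 1) * d = j * d + d := by ring
      omega
  have h1 := main (k + 1) le_rfl
  rw [Nat.sub_self, pow_zero] at h1
  exact h1.trans (Submodule.finrank_le _)

/-- the ranks of the powers decrease strictly -/
theorem rank_ge {N : Module.End F V} {k : ℕ} (hn : ∃ m, N ^ m = 0) (hk : N ^ k ≠ 0) :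
    k ≤ finrank F (LinearMap.range N) := by
  obtain ⟨m, hm⟩ := hn
  obtain ⟨m', hm', hmm⟩ : ∃ m', N ^ m' ≠ 0 ∧ N ^ (m' + 1) = 0 := by
    by_contra hcon
    push Not at hcon
    have : ∀ j, N ^ j ≠ 0 := by
      intro j
      induction j with
      | zero =>
        rw [pow_zero]
        intro h1
        apply hk
        have : N ^ k = N ^ k * 1 := (mul_one _).symm
        rw [this, h1, mul_zero]
      | succ j ih => exact hcon j ih
    exact this m hm
  have hkm : k ≤ m' := by
    by_contra hcon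
    apply hk
    obtain ⟨j, rfl⟩ := Nat.exists_eq_add_of_le (show m' + 1 ≤ k by omega)
    rw [pow_add, hmm, zero_mul]
  refine hkm.trans ?_
  -- the restriction to the range of `N`
  rcases Nat.eq_zero_or_pos m' with h0 | h0
  · omega
  have step : ∀ i, i ≤ m' → finrank F (LinearMap.range (N ^ (i + 1))) + 1 ≤ finrank F (LinearMap.range (N ^ i)) := by
    intro i hi
    by_contra hcon
    have hle : LinearMap.range (N ^ (i + 1)) ≤ LinearMap.range (N ^ i) := by
      rintro _ ⟨w, rfl⟩
      exact ⟨N w, by rw [pow_succ]; rfl⟩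
    have heq : LinearMap.range (N ^ (i + 1)) = LinearMap.range (N ^ i) :=
      Submodule.eq_of_le_of_finrank_le hle (by omega)
    have h1 : ∀ j, LinearMap.range (N ^ (i + j)) = LinearMap.range (N ^ i) := by
      intro j
      induction j with
      | zero => rfl
      | succ j ih =>
        rw [← heq]
        ext v
        constructor
        · rintro ⟨w, rfl⟩
          have : (N ^ (i + (j + 1))) w = (N ^ (i + 1)) ((N ^ j) w) := by
            rw [← Module.End.mul_apply, ← pow_add]
            congr 2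
            ring
          rw [this]
          exact ⟨_, rfl⟩
        · rintro ⟨w, rfl⟩
          have h2 : (N ^ i) w ∈ LinearMap.range (N ^ (i + j)) := by rw [ih]; exact ⟨w, rfl⟩
          obtain ⟨w', hw'⟩ := h2
          refine ⟨w', ?_⟩
          have e1 : (N ^ (i + (j + 1))) w' = N ((N ^ (i + j)) w') := by
            rw [← add_assoc, pow_succ']
            rfl
          rw [e1, hw', pow_succ']
          rfl
    have h2 := h1 (m' + 1)
    rw [pow_add, hmm, mul_zero] at h2
    have h3 : N ^ i = 0 := by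
      rw [← LinearMap.range_eq_bot, ← h2]
      exact LinearMap.range_eq_bot.2 rfl
    apply hm'
    obtain ⟨j, rfl⟩ := Nat.exists_eq_add_of_le hi
    rw [pow_add, h3, zero_mul]
  have main : ∀ j, j ≤ m' → j ≤ finrank F (LinearMap.range (N ^ (m' + 1 - j))) := by
    intro j
    induction j with
    | zero => intro _; exact Nat.zero_le _
    | succ j ih =>
      intro hj
      have h1 := ih (by omega)
      have h2 := step (m' + 1 - (j + 1)) (by omega)
      have h3 : m' + 1 - (j + 1) + 1 = m' + 1 - j := by omega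
      rw [h3] at h2
      omega
  have h1 := main m' le_rfl
  rwa [Nat.add_sub_cancel_left, pow_one] at h1

theorem exists_max {N : Module.End F V} (hn : ∃ m, N ^ m = 0) {a : ℕ} (ha : N ^ a ≠ 0) :
    ∃ k, a ≤ k ∧ N ^ k ≠ 0 ∧ N ^ (k + 1) = 0 := by
  obtain ⟨m, hm⟩ := hn
  by_contra hcon
  push Not at hcon
  have : ∀ j, N ^ (a + j) ≠ 0 := by
    intro j
    induction j with
    | zero => exact ha
    | succ j ih => exact hcon (a + j) (by omega) ih
  apply this m
  rw [pow_add, hm, mul_zero]

end Blocks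

section Form

variable [CharP F 2] {β : V →ₗ[F] V →ₗ[F] F} {Q : V → F}

/-- the adjoint of `N ^ k` -/
theorem adj {u : V ≃ₗ[F] V} (hu : u ∈ Isom β) (k : ℕ) (v w : V) :
    β ((nu u ^ k) v) ((u ^ k) w) = β v ((nu u ^ k) w) := by
  induction k generalizing v w with
  | zero => rfl
  | succ k ih =>
    have e1 : (nu u ^ (k + 1)) v = nu u ((nu u ^ k) v) := by rw [pow_succ']; rfl
    have e2 : (u ^ (k + 1)) w = u ((u ^ k) w) := by rw [pow_succ']; rfl
    have e3 : (nu u ^ (k + 1)) w = (nu u ^ k) (nu u w) := by rw [pow_succ]; rfl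
    have key : ∀ a b : V, β (nu u a) (u b) = β a (nu u b) := by
      intro a b
      rw [nu_apply, nu_apply, map_sub, LinearMap.sub_apply, hu, map_sub, sub_eq_add_neg, sub_eq_add_neg,
        CharTwo.neg_eq, CharTwo.neg_eq, add_comm]
    rw [e1, e2, key, e3, ← ih]
    have e4 : (u ^ k) (nu u w) = nu u ((u ^ k) w) := comm_nu (g := u ^ k) (u := u) (fun v => by
      show (u ^ k * u) v = (u * u ^ k) v
      rw [← pow_succ, ← pow_succ']) w
    rw [e4]

/-- **`k` even**: the form `β(v, N ^ k v)` vanishes -/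
theorem alt_even {u : V ≃ₗ[F] V} (hβ : Alt β) (hu : u ∈ Isom β) {h : ℕ} (hn : nu u ^ (h + h + 1) = 0) (v : V) :
    β v ((nu u ^ (h + h)) v) = 0 := by
  have e1 : (nu u ^ (h + h)) v = (nu u ^ h) ((nu u ^ h) v) := by rw [pow_add]; rfl
  rw [e1, ← adj hu h]
  -- `u ^ h z = z + N (..)`
  have e2 : ∀ z : V, ∃ z', (u ^ h) z = z + nu u z' := by
    intro z
    have : ∀ j : ℕ, ∃ z', (u ^ j) z = z + nu u z' := by
      intro j
      induction j with
      | zero => exact ⟨0, by rw [map_zero, add_zero]; rfl⟩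
      | succ j ih =>
        obtain ⟨z', hz'⟩ := ih
        refine ⟨z + u z', ?_⟩
        rw [pow_succ']
        show u ((u ^ j) z) = _
        rw [hz', map_add, nu_apply, nu_apply]
        simp only [map_add, map_sub]
        abel
    exact this h
  obtain ⟨z', hz'⟩ := e2 v
  have e3 : (u ^ h) ((nu u ^ h) v) = (nu u ^ h) v + (nu u ^ (h + 1)) z' := by
    have h1 : (u ^ h) ((nu u ^ h) v) = (nu u ^ h) ((u ^ h) v) := comm_nu_pow (fun w => by
      show (u ^ h * u) w = (u * u ^ h) w
      rw [← pow_succ, ← pow_succ']) h v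
    rw [h1, hz', map_add]
    congr 1
  rw [e3, map_add, hβ.alt, zero_add]
  -- `β (N^h v) (N^(h+1) z')`
  obtain ⟨z'', hz''⟩ : ∃ z'', (u ^ h) z'' = (nu u ^ (h + 1)) z' := ⟨(u ^ h).symm _, LinearEquiv.apply_symm_apply _ _⟩
  rw [← hz'', adj hu h]
  have h2 : (u ^ h) ((nu u ^ h) z'') = 0 := by
    have h1 : (u ^ h) ((nu u ^ h) z'') = (nu u ^ h) ((u ^ h) z'') := comm_nu_pow (fun w => by
      show (u ^ h * u) w = (u * u ^ h) w
      rw [← pow_succ, ← pow_succ']) h z''
    rw [h1, hz'', ← Module.End.mul_apply, ← pow_add]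
    have : h + (h + 1) = h + h + 1 := by ring
    rw [this, hn]
    rfl
  have h3 : (nu u ^ h) z'' = 0 := (LinearEquiv.map_eq_zero_iff _).1 h2
  rw [h3, map_zero]

/-- **one block of maximal size** -/
theorem exists_of_one [FiniteDimensional F V] {u : V ≃ₗ[F] V} (hβ : Alt β) (hu : u ∈ Isom β) {k : ℕ}
    (hn : nu u ^ (k + 1) = 0) (h1 : finrank F (LinearMap.range (nu u ^ k)) = 1) :
    ∃ w, β w ((nu u ^ k) w) ≠ 0 ∧ ∀ v, ∃ b : F, (nu u ^ k) v = b • (nu u ^ k) w ∧
      β v ((nu u ^ k) w) = b * β w ((nu u ^ k) w) := by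
  obtain ⟨⟨_, w, rfl⟩, hv0, hsp⟩ := finrank_eq_one_iff'.1 h1
  have hv0' : (nu u ^ k) w ≠ 0 := fun h => hv0 (Subtype.ext h)
  have hb : ∀ v, ∃ b : F, (nu u ^ k) v = b • (nu u ^ k) w := by
    intro v
    obtain ⟨c, hc⟩ := hsp ⟨(nu u ^ k) v, v, rfl⟩
    exact ⟨c, (congrArg Subtype.val hc).symm⟩
  have huk : ∀ j : ℕ, ∀ v, (u ^ j) ((nu u ^ k) v) = (nu u ^ k) v := by
    intro j v
    induction j with
    | zero => rfl
    | succ j ih =>
      rw [pow_succ']
      show u ((u ^ j) _) = _
      rw [ih]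
      have h2 : nu u ((nu u ^ k) v) = 0 := by
        rw [← Module.End.mul_apply, ← pow_succ', hn]
        rfl
      rw [nu_apply, sub_eq_zero] at h2
      exact h2
  -- `β (N^k v) w' = β v (N^k w')`
  have hadj : ∀ v v', β ((nu u ^ k) v) v' = β v ((nu u ^ k) v') := by
    intro v v'
    rw [← adj hu k v v']
    have h2 : (u ^ k) ((nu u ^ k) v) = (nu u ^ k) v := huk k v
    conv_lhs => rw [← (Isom β).pow_mem hu k, h2]
  have hrel : ∀ v, ∃ b : F, (nu u ^ k) v = b • (nu u ^ k) w ∧ β v ((nu u ^ k) w) = b * β w ((nu u ^ k) w) := by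
    intro v
    obtain ⟨b, hb⟩ := hb v
    refine ⟨b, hb, ?_⟩
    rw [← hadj, hb, map_smul, LinearMap.smul_apply, smul_eq_mul, hβ.symm ((nu u ^ k) w) w]
  refine ⟨w, ?_, hrel⟩
  intro h0
  apply hv0'
  apply hβ.nd' _
  intro v
  obtain ⟨b, -, h2⟩ := hrel v
  rw [h2, h0, mul_zero]

/-- one block of maximal size: no isometry without fixed vectors commutes with `u` -/
theorem no_one [FiniteDimensional F V] {u y : V ≃ₗ[F] V} (hβ : Alt β) (hu : u ∈ Isom β) (hy : y ∈ Isom β)
    (hyu : ∀ v, y (u v) = u (y v)) (hfix : ∀ v, y v = v → v = 0) {k : ℕ}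
    (hn : nu u ^ (k + 1) = 0) (h1 : finrank F (LinearMap.range (nu u ^ k)) = 1) : False := by
  obtain ⟨w, hw, hrel⟩ := exists_of_one hβ hu hn h1
  obtain ⟨b, hb1, hb2⟩ := hrel (y w)
  have h2 : β (y w) ((nu u ^ k) (y w)) = β w ((nu u ^ k) w) := by
    rw [← comm_nu_pow hyu, hy]
  rw [hb1, map_smul, smul_eq_mul, hb2] at h2
  have h3 : b * b = 1 := by
    apply mul_right_cancel₀ hw
    rw [one_mul, mul_assoc]
    exact h2
  have h4 : b = 1 := by
    have h5 : (b + 1) * (b + 1) = 0 := by
      have : (b + 1) * (b + 1) = b * b + 1 + 2 * b := by ring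
      rw [this, h3, CharTwo.two_eq_zero, zero_mul, add_zero, CharTwo.add_self_eq_zero]
    have h6 := mul_self_eq_zero.1 h5
    exact CharTwo.add_eq_zero.1 h6
  rw [h4, one_smul, ← comm_nu_pow hyu] at hb1
  have h5 := hfix _ hb1
  rw [h5, map_zero] at hw
  exact hw rfl

/-- **`u` commutes with an isometry without fixed vectors** -/
theorem half [FiniteDimensional F V] {u y : V ≃ₗ[F] V} (hβ : Alt β) (hu : u ∈ Isom β) (hy : y ∈ Isom β)
    (hyu : ∀ v, y (u v) = u (y v)) (hfix : ∀ v, y v = v → v = 0) (hnil : ∃ k, nu u ^ k = 0) {m : ℕ}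
    (hm : finrank F V = 2 * m) : nu u ^ m = 0 := by
  by_contra hne
  obtain ⟨k, hk, hk0, hk1⟩ := exists_max hnil hne
  have h1 := blocks hk1
  have h2 : 0 < finrank F (LinearMap.range (nu u ^ k)) := by
    rw [Nat.pos_iff_ne_zero]
    intro h
    exact hk0 (LinearMap.range_eq_bot.1 (Submodule.finrank_eq_zero.1 h))
  have h3 : finrank F (LinearMap.range (nu u ^ k)) < 2 := by
    by_contra hcon
    have : (k + 1) * 2 ≤ (k + 1) * finrank F (LinearMap.range (nu u ^ k)) := Nat.mul_le_mul_left _ (by omega)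
    omega
  exact no_one hβ hu hy hyu hfix hk1 (by omega)

/-- **trivial Dickson invariant** -/
theorem cap [FiniteDimensional F V] {u : V ≃ₗ[F] V} (hβ : Alt β) (hu : u ∈ Isom β) (hev : Even (finrank F (bW u)))
    (hnil : ∃ k, nu u ^ k = 0) {m : ℕ} (hm : finrank F V = 2 * m) {a : ℕ} (ha : 2 * m - 2 ≤ a) (ha1 : 1 ≤ a) :
    nu u ^ a = 0 := by
  by_contra hne
  obtain ⟨k, hk, hk0, hk1⟩ := exists_max hnil hne
  have h1 := blocks hk1
  have h2 : 0 < finrank F (LinearMap.range (nu u ^ k)) := by
    rw [Nat.pos_iff_ne_zero]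
    intro h
    exact hk0 (LinearMap.range_eq_bot.1 (Submodule.finrank_eq_zero.1 h))
  have h4 := rank_ge hnil hk0
  have h5 : finrank F (bW u) < finrank F V := by
    have h6 := Submodule.finrank_le (bW u)
    rcases h6.lt_or_eq with h7 | h7
    · exact h7
    exfalso
    have h8 : LinearMap.range (nu u) = ⊤ := Submodule.eq_top_of_finrank_eq h7
    have h9 : ∀ j, LinearMap.range (nu u ^ j) = ⊤ := by
      intro j
      induction j with
      | zero => exact LinearMap.range_eq_top.2 Function.surjective_id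
      | succ j ih =>
        rw [pow_succ', Module.End.mul_eq_comp, LinearMap.range_comp, ih, Submodule.map_top, h8]
    have h10 := h9 (k + 1)
    rw [hk1] at h10
    have h11 : (⊤ : Submodule F V) = ⊥ := by rw [← h10]; exact LinearMap.range_zero
    have h12 : finrank F V = 0 := by rw [← finrank_top F V, h11, finrank_bot]
    have h13 : 0 < finrank F V := by
      refine lt_of_lt_of_le ?_ h1
      exact Nat.mul_pos (Nat.succ_pos k) h2
    omega
  rw [range_nu] at h4
  have h3 : finrank F (LinearMap.range (nu u ^ k)) < 2 := by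
    by_contra hcon
    have h6 : (k + 1) * 2 ≤ (k + 1) * finrank F (LinearMap.range (nu u ^ k)) := Nat.mul_le_mul_left _ (by omega)
    -- `2 (k + 1) ≤ 2 m`
    have h7 : k + 1 ≤ m := by omega
    have h8 : m = 2 ∨ m ≤ 1 := by omega
    rcases h8 with h8 | h8
    · subst h8
      omega
    · omega
  have h3' : finrank F (LinearMap.range (nu u ^ k)) = 1 := by omega
  have h6 : k + 1 ≤ 2 * m := by omega
  -- `k = 2 m - 1` or `k = 2 m - 2`
  rcases Nat.lt_or_ge k (2 * m - 1) with h7 | h7
  · -- `k = 2 m - 2`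
    have h8 : k = (m - 1) + (m - 1) := by omega
    obtain ⟨w, hw, -⟩ := exists_of_one hβ hu hk1 h3'
    rw [h8] at hw hk1
    exact hw (alt_even hβ hu hk1 w)
  · have h8 : finrank F (bW u) = 2 * m - 1 := by omega
    rw [h8, Nat.even_iff] at hev
    omega

end Form

end Cfsg.Agent.H199.Out
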