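import Mathlib
import Cfsg.Agent.H199.Out.Uni

/-!
# Orders of elements in orthogonal groups of small dimension, characteristic two (helper199)

`u` a 2-element with trivial Dickson invariant, `y` an isometry of odd prime order `p` commuting with `u`:
restrictions on `dim V`, `u`, `p`.
-/

set_option autoImplicit false
set_option linter.unusedVariables false
set_option linter.unusedSectionVars false

namespace Cfsg.Agent.H199.Out

open Module
open Cfsg.Agent.H375.Odd
open Cfsg.Agent.H375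

variable {F : Type*} [Field F] {V : Type*} [AddCommGroup V] [Module F V] {β : V →ₗ[F] V →ₗ[F] F} {Q : V → F}

/-! ### Restriction -/

/-- the restricted form -/
def bres (β : V →ₗ[F] V →ₗ[F] F) (W : Submodule F V) : W →ₗ[F] W →ₗ[F] F := β.compl₁₂ W.subtype W.subtype

theorem bres_apply {W : Submodule F V} (u v : W) : bres β W u v = β u v := rfl

theorem alt_res (hβ : Alt β) {W : Submodule F V} (hnd : ∀ u ∈ W, (∀ v ∈ W, β u v = 0) → u = 0) : Alt (bres β W) :=
  ⟨fun v => hβ.alt v, fun u hu => Subtype.ext (hnd u u.2 fun v hv => hu ⟨v, hv⟩)⟩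

theorem qf_res (hQ : QF Q β) (W : Submodule F V) : QF (fun w : W => Q w) (bres β W) :=
  ⟨fun u v => hQ.add u v, fun c v => hQ.smul c v⟩

variable [FiniteDimensional F V]

theorem restr_Isom {g : V ≃ₗ[F] V} (hg : g ∈ Isom β) {W : Submodule F V} (hW : ∀ w ∈ W, g w ∈ W) :
    restr g W hW ∈ Isom (bres β W) := fun u v => hg u v

theorem restr_OQ {g : V ≃ₗ[F] V} (hg : g ∈ OQ Q) {W : Submodule F V} (hW : ∀ w ∈ W, g w ∈ W) :
    restr g W hW ∈ OQ (fun w : W => Q w) := fun v => hg v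

theorem nu_restr {g : V ≃ₗ[F] V} {W : Submodule F V} (hW : ∀ w ∈ W, g w ∈ W) (k : ℕ) (w : W) :
    (((nu (restr g W hW) ^ k) w : W) : V) = (nu g ^ k) (w : V) := by
  induction k generalizing w with
  | zero => rfl
  | succ k ih =>
    rw [pow_succ, pow_succ, Module.End.mul_apply, Module.End.mul_apply, ih]
    rfl

/-- ranks add -/
theorem finrank_bW_restr {g : V ≃ₗ[F] V} {W C : Submodule F V} (h : IsCompl W C) (hW : ∀ w ∈ W, g w ∈ W)
    (hC : ∀ w ∈ C, g w ∈ C) :
    finrank F (bW g) = finrank F (bW (restr g W hW)) + finrank F (bW (restr g C hC)) := by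
  have h1 : bW g = (bW (restr g W hW)).map W.subtype ⊔ (bW (restr g C hC)).map C.subtype := by
    apply le_antisymm
    · rintro _ ⟨v, rfl⟩
      obtain ⟨w, hw, c, hc, rfl⟩ := Submodule.mem_sup.1 (show v ∈ W ⊔ C by rw [h.sup_eq_top]; trivial)
      have : nu g (w + c) = (g w - w) + (g c - c) := by
        show g (w + c) - (w + c) = _
        rw [map_add]
        abel
      show nu g (w + c) ∈ _
      rw [this]
      apply Submodule.add_mem_sup
      · exact ⟨restr g W hW ⟨w, hw⟩ - ⟨w, hw⟩, ⟨⟨w, hw⟩, rfl⟩, rfl⟩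
      · exact ⟨restr g C hC ⟨c, hc⟩ - ⟨c, hc⟩, ⟨⟨c, hc⟩, rfl⟩, rfl⟩
    · apply sup_le
      · rintro _ ⟨_, ⟨w, rfl⟩, rfl⟩
        exact ⟨w, rfl⟩
      · rintro _ ⟨_, ⟨w, rfl⟩, rfl⟩
        exact ⟨w, rfl⟩
  have h2 : (bW (restr g W hW)).map W.subtype ⊓ (bW (restr g C hC)).map C.subtype = ⊥ := by
    rw [eq_bot_iff]
    refine le_trans (inf_le_inf (Submodule.map_subtype_le W _) (Submodule.map_subtype_le C _)) ?_
    rw [h.inf_eq_bot]
  have h3 := Submodule.finrank_sup_add_finrank_inf_eq ((bW (restr g W hW)).map W.subtype)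
    ((bW (restr g C hC)).map C.subtype)
  rw [← h1, h2, finrank_bot, add_zero, Submodule.finrank_map_subtype_eq, Submodule.finrank_map_subtype_eq] at h3
  exact h3

variable [CharP F 2]

theorem nu_pow_two (u : V ≃ₗ[F] V) (b : ℕ) : nu u ^ 2 ^ b = ((u ^ 2 ^ b : V ≃ₗ[F] V) : Module.End F V) - 1 := by
  rcases subsingleton_or_nontrivial V with h | h
  · exact LinearMap.ext fun v => Subsingleton.elim _ _
  have : CharP (Module.End F V) 2 := charP_of_injective_algebraMap (algebraMap F (Module.End F V)).injective 2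
  have : Fact (Nat.Prime 2) := ⟨Nat.prime_two⟩
  have h1 : nu u = (u : Module.End F V) - 1 := rfl
  rw [h1, sub_pow_char_pow_of_commute 2 b (Commute.one_right _), one_pow, coe_pow]

theorem nu_pow_eq_zero_iff (u : V ≃ₗ[F] V) (b : ℕ) : nu u ^ 2 ^ b = 0 ↔ u ^ 2 ^ b = 1 := by
  rw [nu_pow_two, sub_eq_zero]
  constructor
  · intro h
    apply LinearEquiv.ext
    intro v
    exact LinearMap.congr_fun h v
  · intro h
    rw [h]
    rfl

/-- fixed vectors of a coprime power -/
theorem fix_of_coprime {y : V ≃ₗ[F] V} {p : ℕ} (hyp : y ^ p = 1) {k : ℕ} (hk : k.Coprime p) {v : V}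
    (hv : (y ^ k) v = v) : y v = v := by
  have h6 := CovTwo.isPeriodicPt.2 hv
  have h7 := CovTwo.isPeriodicPt.2 (show (y ^ p) v = v by rw [hyp]; rfl)
  have h8 := h6.gcd h7
  rw [hk] at h8
  have h9 := CovTwo.isPeriodicPt.1 h8
  rwa [pow_one] at h9

/-- **a 2-element commuting with an isometry without fixed vectors has trivial Dickson invariant** -/
theorem even_of_fpf (hβ : Alt β) (hQ : QF Q β) {u y : V ≃ₗ[F] V} (hu : u ∈ OQ Q) (hy : y ∈ OQ Q)
    (hyu : ∀ v, y (u v) = u (y v)) {p : ℕ} (hp : Odd p) (hyp : y ^ p = 1) (hfix : ∀ v, y v = v → v = 0) {t : ℕ}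
    (ht : u ^ 2 ^ t = 1) : u ∈ OM hβ hQ := by
  have hcomm : Commute u y := by
    apply LinearEquiv.ext
    intro v
    exact (hyu v).symm
  have h1 : u * y ∈ OM hβ hQ := by
    refine ⟨(OQ Q).mul_mem hu hy, ?_⟩
    have h2 : bV (u * y) = ⊥ := by
      rw [eq_bot_iff]
      intro v hv
      rw [mem_bV] at hv
      have h3 : ((u * y) ^ 2 ^ t) v = v := CovTwo.isPeriodicPt.1 (by
        have h4 := CovTwo.isPeriodicPt.2 (show ((u * y) ^ 1) v = v by rw [pow_one]; exact hv)
        have h5 := h4.const_mul (2 ^ t)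
        rwa [mul_one] at h5)
      rw [hcomm.mul_pow, ht, one_mul] at h3
      exact (Submodule.mem_bot F).2 (hfix v (fix_of_coprime hyp (Nat.Coprime.pow_left _
        (Nat.coprime_two_left.2 hp)) h3))
    have h3 := finrank_bW_add (F := F) (u * y)
    rw [h2, finrank_bot, add_zero] at h3
    rw [h3]
    exact even_finrank hβ
  have h2 := (OM hβ hQ).mul_mem h1 ((OM hβ hQ).inv_mem (mem_OM_of_odd hβ hQ hy hp hyp))
  rwa [mul_inv_cancel_right] at h2

section Pair

variable {u y : V ≃ₗ[F] V} {p m t : ℕ}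

/-- **the structure of a pair** -/
theorem pair (hβ : Alt β) (hQ : QF Q β) (hu : u ∈ OM hβ hQ) (hy : y ∈ OQ Q) (hyu : ∀ v, y (u v) = u (y v))
    (hp : Odd p) (hyp : y ^ p = 1) (hy1 : y ≠ 1) (ht : u ^ 2 ^ t = 1) (hm : finrank F V = 2 * m) :
    ∃ m', 1 ≤ m' ∧ m' ≤ m ∧ finrank F (bW y) = 2 * m' ∧ (m' < m → ∀ a, m' ≤ a → 2 * (m - m') - 2 ≤ a → 1 ≤ a →
      nu u ^ a = 0) ∧ (m' = m → nu u ^ m = 0 ∧ ∀ v, y v = v → v = 0) := by
  have hyβ := OQ_le hQ hy
  have huβ := OQ_le hQ hu.1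
  obtain ⟨m', hm'⟩ := even_bW hβ hyβ hp hyp
  have hm'2 : finrank F (bW y) = 2 * m' := by omega
  have h1 : 0 < finrank F (bW y) := by
    rw [Nat.pos_iff_ne_zero]
    intro h
    exact bW_ne_bot hy1 (Submodule.finrank_eq_zero.1 h)
  have h2 := Submodule.finrank_le (bW y)
  have huW : ∀ w ∈ bW y, u w ∈ bW y := bW_inv fun v => (hyu v).symm
  have huC : ∀ w ∈ bV y, u w ∈ bV y := bV_inv fun v => (hyu v).symm
  have hyW : ∀ w ∈ bW y, y w ∈ bW y := bW_inv fun v => rfl
  have hβW : Alt (bres β (bW y)) := alt_res hβ (nd_bW hβ hyβ hp hyp)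
  have hβC : Alt (bres β (bV y)) := alt_res hβ (nd_bV hβ hyβ hp hyp)
  have hQW := qf_res hQ (bW y)
  have hQC := qf_res hQ (bV y)
  have htW : restr u (bW y) huW ^ 2 ^ t = 1 := restr_pow_eq_one _ fun w _ => by rw [ht]; rfl
  have htC : restr u (bV y) huC ^ 2 ^ t = 1 := restr_pow_eq_one _ fun w _ => by rw [ht]; rfl
  have hyW1 : restr y (bW y) hyW ^ p = 1 := restr_pow_eq_one _ fun w _ => by rw [hyp]; rfl
  have hfixW : ∀ v, restr y (bW y) hyW v = v → v = 0 := by
    intro v hv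
    exact Subtype.ext (disj hp hyp v.2 (congrArg Subtype.val hv))
  have hcW : ∀ v, restr y (bW y) hyW (restr u (bW y) huW v) = restr u (bW y) huW (restr y (bW y) hyW v) :=
    fun v => Subtype.ext (hyu v)
  have hhalf : nu (restr u (bW y) huW) ^ m' = 0 :=
    half hβW (restr_Isom huβ huW) (restr_Isom hyβ hyW) hcW hfixW
      ⟨2 ^ t, (nu_pow_eq_zero_iff _ _).2 htW⟩ hm'2
  refine ⟨m', by omega, by omega, hm'2, fun hlt a ha1 ha2 ha3 => ?_, fun heq => ?_⟩
  · have hev : restr u (bW y) huW ∈ OM hβW hQW :=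
      even_of_fpf hβW hQW (restr_OQ hu.1 huW) (restr_OQ hy hyW) hcW hp hyW1 hfixW htW
    have h3 := finrank_bW_restr (isCompl hp hyp) huW huC
    have h4 : Even (finrank F (bW (restr u (bV y) huC))) := by
      have h5 := hu.2
      have h6 := hev.2
      rw [Nat.even_iff] at *
      omega
    have h5 := finrank_bW_add (F := F) y
    have h6 : nu (restr u (bV y) huC) ^ a = 0 :=
      cap hβC (restr_Isom huβ huC) h4 ⟨2 ^ t, (nu_pow_eq_zero_iff _ _).2 htC⟩ (m := m - m') (by omega) ha2 ha3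
    apply LinearMap.ext
    intro v
    obtain ⟨w, hw, c, hc, rfl⟩ := exists_split hp hyp v
    rw [map_add]
    have h7 : (nu u ^ a) w = 0 := by
      obtain ⟨j, rfl⟩ := Nat.exists_eq_add_of_le ha1
      have h8 := nu_restr huW (m' + j) ⟨w, hw⟩
      rw [← h8, pow_add, hhalf, zero_mul]
      rfl
    have h8 : (nu u ^ a) c = 0 := by
      have h9 := nu_restr huC a ⟨c, hc⟩
      rw [← h9, h6]
      rfl
    rw [h7, h8, add_zero]
    rfl
  · have htop : bW y = ⊤ := Submodule.eq_top_of_finrank_eq (by omega)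
    refine ⟨?_, fun v hv => disj hp hyp (by rw [htop]; trivial) hv⟩
    subst heq
    apply LinearMap.ext
    intro v
    have h9 := nu_restr huW m' ⟨v, by rw [htop]; trivial⟩
    have h10 : (nu u ^ m') v = 0 := by
      rw [← h9, hhalf]
      rfl
    rw [h10]
    rfl

variable [Fintype F]

/-- `y` without fixed vectors, `N ^ (m - 1) ≠ 0` -/
theorem dvd_of_top (hβ : Alt β) (huβ : u ∈ Isom β) (hyβ : y ∈ Isom β) (hyu : ∀ v, y (u v) = u (y v)) (hp : p.Prime)
    (hp2 : p ≠ 2) (hyp : y ^ p = 1) (hy1 : y ≠ 1) (hfix : ∀ v, y v = v → v = 0) (hm : finrank F V = 2 * (m + 1))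
    (hm1 : 2 ≤ m + 1) (h0 : nu u ^ m ≠ 0) (h1 : nu u ^ (m + 1) = 0) : p ∣ Fintype.card F ^ 2 - 1 := by
  have hb := blocks h1
  have h2 : 0 < finrank F (LinearMap.range (nu u ^ m)) := by
    rw [Nat.pos_iff_ne_zero]
    intro h
    exact h0 (LinearMap.range_eq_bot.1 (Submodule.finrank_eq_zero.1 h))
  have h3 : finrank F (LinearMap.range (nu u ^ m)) ≠ 1 := fun h => no_one hβ huβ hyβ hyu hfix h1 h
  have h4 : finrank F (LinearMap.range (nu u ^ m)) = 2 := by
    have h5 : finrank F (LinearMap.range (nu u ^ m)) < 3 := by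
      by_contra hcon
      have : (m + 1) * 3 ≤ (m + 1) * finrank F (LinearMap.range (nu u ^ m)) := Nat.mul_le_mul_left _ (by omega)
      omega
    omega
  have hyo : orderOf y = p ^ (0 + 1) := by
    have : Fact p.Prime := ⟨hp⟩
    rw [zero_add, pow_one]
    exact orderOf_eq_prime hyp hy1
  have htop : bW y = ⊤ := by
    apply Submodule.eq_top_of_finrank_eq
    have h5 : bV y = ⊥ := by
      rw [eq_bot_iff]
      intro v hv
      exact (Submodule.mem_bot F).2 (hfix v (mem_bV.1 hv))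
    have h6 := finrank_bW_add (F := F) y
    rwa [h5, finrank_bot, add_zero] at h6
  have h5 := dvd_card_sub_one hp hp2 hyo (Y := LinearMap.range (nu u ^ m)) (by
    rintro _ ⟨v, rfl⟩
    exact ⟨y v, (comm_nu_pow hyu m v).symm⟩) (by
    rw [pow_zero, pow_one, htop]
    exact le_top)
  rwa [zero_add, pow_one, h4] at h5

variable [Fintype V] {ψ : F → ℤ}

theorem GS_of_fpf (hψ : Psi ψ) (hQ : QF Q β) (hy : y ∈ OQ Q) (hp : p.Prime) (hyp : y ^ p = 1)
    (hfix : ∀ v, y v = v → v = 0) : (p : ℤ) ∣ GS ψ Q ⊤ - 1 := by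
  have h1 := GS_mod hψ (Q := Q) (x := y) hy hp hyp ⊤ ⊥ (fun _ _ => trivial) (fun w => by
    rw [Submodule.mem_bot]
    constructor
    · rintro rfl
      exact ⟨trivial, map_zero _⟩
    · rintro ⟨-, h⟩
      exact hfix w h)
  rwa [GS_bot hψ hQ] at h1

end Pair

end Cfsg.Agent.H199.Out
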